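import Mathlib
import Cfsg.Agent.Lib.Helper56.TC
import Cfsg.Agent.Lib.Helper28.HeMult.L1.D
set_option autoImplicit false
set_option maxRecDepth 1000000

namespace Cfsg.Agent.Lib.Helper28.HeMult.L1

open Cfsg.Agent.Lib.Helper56.TC Cfsg.Agent.Lib.Helper56.TC.Tabs
open Cfsg.Agent.Lib.Helper28.CovL

theorem cN_0 : allRange (fun x => forceN T.chkName x) 0 1153 = true := by decide +kernel
theorem cN_1153 : allRange (fun x => forceN T.chkName x) 1153 1157 = true := by decide +kernel
theorem cN_2310 : allRange (fun x => forceN T.chkName x) 2310 1006 = true := by decide +kernel
theorem cN_3316 : allRange (fun x => forceN T.chkName x) 3316 1036 = true := by decide +kernel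
theorem cN_4352 : allRange (fun x => forceN T.chkName x) 4352 1049 = true := by decide +kernel
theorem cN_5401 : allRange (fun x => forceN T.chkName x) 5401 1042 = true := by decide +kernel
theorem cN_6443 : allRange (fun x => forceN T.chkName x) 6443 1069 = true := by decide +kernel
theorem cN_7512 : allRange (fun x => forceN T.chkName x) 7512 1116 = true := by decide +kernel
theorem cN_8628 : allRange (fun x => forceN T.chkName x) 8628 1118 = true := by decide +kernel
theorem cN_9746 : allRange (fun x => forceN T.chkName x) 9746 1164 = true := by decide +kernel
theorem cN_10910 : allRange (fun x => forceN T.chkName x) 10910 1181 = true := by decide +kernel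
theorem cN_12091 : allRange (fun x => forceN T.chkName x) 12091 1210 = true := by decide +kernel

end Cfsg.Agent.Lib.Helper28.HeMult.L1
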