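import Mathlib
import Cfsg.Agent.Lib.Helper56.TC
import Cfsg.Agent.Lib.Helper28.HeMult.L1.D
set_option autoImplicit false
set_option maxRecDepth 1000000

namespace Cfsg.Agent.Lib.Helper28.HeMult.L1

open Cfsg.Agent.Lib.Helper56.TC Cfsg.Agent.Lib.Helper56.TC.Tabs
open Cfsg.Agent.Lib.Helper28.CovL

theorem cN_13301 : allRange (fun x => forceN T.chkName x) 13301 1205 = true := by decide +kernel
theorem cN_14506 : allRange (fun x => forceN T.chkName x) 14506 1215 = true := by decide +kernel
theorem cN_15721 : allRange (fun x => forceN T.chkName x) 15721 1194 = true := by decide +kernel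
theorem cN_16915 : allRange (fun x => forceN T.chkName x) 16915 1208 = true := by decide +kernel
theorem cN_18123 : allRange (fun x => forceN T.chkName x) 18123 1231 = true := by decide +kernel
theorem cN_19354 : allRange (fun x => forceN T.chkName x) 19354 1227 = true := by decide +kernel
theorem cN_20581 : allRange (fun x => forceN T.chkName x) 20581 1237 = true := by decide +kernel
theorem cN_21818 : allRange (fun x => forceN T.chkName x) 21818 1244 = true := by decide +kernel
theorem cN_23062 : allRange (fun x => forceN T.chkName x) 23062 1213 = true := by decide +kernel
theorem cN_24275 : allRange (fun x => forceN T.chkName x) 24275 1205 = true := by decide +kernel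
theorem cN_25480 : allRange (fun x => forceN T.chkName x) 25480 1183 = true := by decide +kernel
theorem cN_26663 : allRange (fun x => forceN T.chkName x) 26663 1209 = true := by decide +kernel

end Cfsg.Agent.Lib.Helper28.HeMult.L1
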