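import Mathlib
import Cfsg.Agent.Lib.Helper56.TC
import Cfsg.Agent.Lib.Helper28.HeMult.L1.D
set_option autoImplicit false
set_option maxRecDepth 1000000

namespace Cfsg.Agent.Lib.Helper28.HeMult.L1

open Cfsg.Agent.Lib.Helper56.TC Cfsg.Agent.Lib.Helper56.TC.Tabs
open Cfsg.Agent.Lib.Helper28.CovL

theorem cN_27872 : allRange (fun x => forceN T.chkName x) 27872 1184 = true := by decide +kernel
theorem cN_29056 : allRange (fun x => forceN T.chkName x) 29056 1162 = true := by decide +kernel
theorem cN_30218 : allRange (fun x => forceN T.chkName x) 30218 1184 = true := by decide +kernel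
theorem cN_31402 : allRange (fun x => forceN T.chkName x) 31402 1138 = true := by decide +kernel
theorem cN_32540 : allRange (fun x => forceN T.chkName x) 32540 1178 = true := by decide +kernel
theorem cN_33718 : allRange (fun x => forceN T.chkName x) 33718 1074 = true := by decide +kernel
theorem cN_34792 : allRange (fun x => forceN T.chkName x) 34792 1173 = true := by decide +kernel
theorem cN_35965 : allRange (fun x => forceN T.chkName x) 35965 1183 = true := by decide +kernel
theorem cN_37148 : allRange (fun x => forceN T.chkName x) 37148 1195 = true := by decide +kernel
theorem cN_38343 : allRange (fun x => forceN T.chkName x) 38343 1232 = true := by decide +kernel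
theorem cN_39575 : allRange (fun x => forceN T.chkName x) 39575 1242 = true := by decide +kernel
theorem cN_40817 : allRange (fun x => forceN T.chkName x) 40817 1242 = true := by decide +kernel

end Cfsg.Agent.Lib.Helper28.HeMult.L1
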