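import Mathlib
import Cfsg.Agent.Lib.Helper56.TC
import Cfsg.Agent.Lib.Helper28.HeMult.L1.D
set_option autoImplicit false
set_option maxRecDepth 1000000

namespace Cfsg.Agent.Lib.Helper28.HeMult.L1

open Cfsg.Agent.Lib.Helper56.TC Cfsg.Agent.Lib.Helper56.TC.Tabs
open Cfsg.Agent.Lib.Helper28.CovL

theorem cN_42059 : allRange (fun x => forceN T.chkName x) 42059 1265 = true := by decide +kernel
theorem cN_43324 : allRange (fun x => forceN T.chkName x) 43324 1260 = true := by decide +kernel
theorem cN_44584 : allRange (fun x => forceN T.chkName x) 44584 1155 = true := by decide +kernel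
theorem cN_45739 : allRange (fun x => forceN T.chkName x) 45739 1081 = true := by decide +kernel
theorem cN_46820 : allRange (fun x => forceN T.chkName x) 46820 1086 = true := by decide +kernel
theorem cN_47906 : allRange (fun x => forceN T.chkName x) 47906 1048 = true := by decide +kernel
theorem cN_48954 : allRange (fun x => forceN T.chkName x) 48954 1103 = true := by decide +kernel
theorem cN_50057 : allRange (fun x => forceN T.chkName x) 50057 1034 = true := by decide +kernel
theorem cN_51091 : allRange (fun x => forceN T.chkName x) 51091 1017 = true := by decide +kernel
theorem cN_52108 : allRange (fun x => forceN T.chkName x) 52108 1034 = true := by decide +kernel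
theorem cN_53142 : allRange (fun x => forceN T.chkName x) 53142 1054 = true := by decide +kernel
theorem cN_54196 : allRange (fun x => forceN T.chkName x) 54196 1089 = true := by decide +kernel

end Cfsg.Agent.Lib.Helper28.HeMult.L1
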