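import Mathlib
import Cfsg.Agent.Lib.Helper56.TC
import Cfsg.Agent.Lib.Helper28.HeMult.L1.D
set_option autoImplicit false
set_option maxRecDepth 1000000

namespace Cfsg.Agent.Lib.Helper28.HeMult.L1

open Cfsg.Agent.Lib.Helper56.TC Cfsg.Agent.Lib.Helper56.TC.Tabs
open Cfsg.Agent.Lib.Helper28.CovL

theorem cN_55285 : allRange (fun x => forceN T.chkName x) 55285 1113 = true := by decide +kernel
theorem cN_56398 : allRange (fun x => forceN T.chkName x) 56398 1134 = true := by decide +kernel
theorem cN_57532 : allRange (fun x => forceN T.chkName x) 57532 1104 = true := by decide +kernel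
theorem cN_58636 : allRange (fun x => forceN T.chkName x) 58636 1088 = true := by decide +kernel
theorem cN_59724 : allRange (fun x => forceN T.chkName x) 59724 1125 = true := by decide +kernel
theorem cN_60849 : allRange (fun x => forceN T.chkName x) 60849 1163 = true := by decide +kernel
theorem cN_62012 : allRange (fun x => forceN T.chkName x) 62012 1181 = true := by decide +kernel
theorem cN_63193 : allRange (fun x => forceN T.chkName x) 63193 1181 = true := by decide +kernel
theorem cN_64374 : allRange (fun x => forceN T.chkName x) 64374 1178 = true := by decide +kernel
theorem cN_65552 : allRange (fun x => forceN T.chkName x) 65552 1200 = true := by decide +kernel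
theorem cN_66752 : allRange (fun x => forceN T.chkName x) 66752 1209 = true := by decide +kernel
theorem cN_67961 : allRange (fun x => forceN T.chkName x) 67961 1197 = true := by decide +kernel

end Cfsg.Agent.Lib.Helper28.HeMult.L1
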