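import Mathlib
import Cfsg.Agent.Lib.Helper56.TC
import Cfsg.Agent.Lib.Helper28.HeMult.L1.D
set_option autoImplicit false
set_option maxRecDepth 1000000

namespace Cfsg.Agent.Lib.Helper28.HeMult.L1

open Cfsg.Agent.Lib.Helper56.TC Cfsg.Agent.Lib.Helper56.TC.Tabs
open Cfsg.Agent.Lib.Helper28.CovL

theorem cN_69158 : allRange (fun x => forceN T.chkName x) 69158 1171 = true := by decide +kernel
theorem cN_70329 : allRange (fun x => forceN T.chkName x) 70329 1112 = true := by decide +kernel
theorem cN_71441 : allRange (fun x => forceN T.chkName x) 71441 1114 = true := by decide +kernel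
theorem cN_72555 : allRange (fun x => forceN T.chkName x) 72555 1097 = true := by decide +kernel
theorem cN_73652 : allRange (fun x => forceN T.chkName x) 73652 1119 = true := by decide +kernel
theorem cN_74771 : allRange (fun x => forceN T.chkName x) 74771 1176 = true := by decide +kernel
theorem cN_75947 : allRange (fun x => forceN T.chkName x) 75947 1133 = true := by decide +kernel
theorem cN_77080 : allRange (fun x => forceN T.chkName x) 77080 1050 = true := by decide +kernel
theorem cN_78130 : allRange (fun x => forceN T.chkName x) 78130 1172 = true := by decide +kernel
theorem cN_79302 : allRange (fun x => forceN T.chkName x) 79302 1211 = true := by decide +kernel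
theorem cN_80513 : allRange (fun x => forceN T.chkName x) 80513 1176 = true := by decide +kernel
theorem cN_81689 : allRange (fun x => forceN T.chkName x) 81689 1146 = true := by decide +kernel

end Cfsg.Agent.Lib.Helper28.HeMult.L1
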