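import Mathlib
import Cfsg.Agent.Lib.Helper56.TC
import Cfsg.Agent.Lib.Helper28.HeMult.L1.D
set_option autoImplicit false
set_option maxRecDepth 1000000

namespace Cfsg.Agent.Lib.Helper28.HeMult.L1

open Cfsg.Agent.Lib.Helper56.TC Cfsg.Agent.Lib.Helper56.TC.Tabs
open Cfsg.Agent.Lib.Helper28.CovL

theorem cN_82835 : allRange (fun x => forceN T.chkName x) 82835 1081 = true := by decide +kernel
theorem cN_83916 : allRange (fun x => forceN T.chkName x) 83916 1158 = true := by decide +kernel
theorem cN_85074 : allRange (fun x => forceN T.chkName x) 85074 1174 = true := by decide +kernel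
theorem cN_86248 : allRange (fun x => forceN T.chkName x) 86248 1191 = true := by decide +kernel
theorem cN_87439 : allRange (fun x => forceN T.chkName x) 87439 1221 = true := by decide +kernel
theorem cN_88660 : allRange (fun x => forceN T.chkName x) 88660 1182 = true := by decide +kernel
theorem cN_89842 : allRange (fun x => forceN T.chkName x) 89842 1192 = true := by decide +kernel
theorem cN_91034 : allRange (fun x => forceN T.chkName x) 91034 1190 = true := by decide +kernel
theorem cN_92224 : allRange (fun x => forceN T.chkName x) 92224 1187 = true := by decide +kernel
theorem cN_93411 : allRange (fun x => forceN T.chkName x) 93411 1146 = true := by decide +kernel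
theorem cN_94557 : allRange (fun x => forceN T.chkName x) 94557 1142 = true := by decide +kernel
theorem cN_95699 : allRange (fun x => forceN T.chkName x) 95699 1090 = true := by decide +kernel

end Cfsg.Agent.Lib.Helper28.HeMult.L1
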