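import Mathlib
import Cfsg.Agent.Lib.Helper56.TC
import Cfsg.Agent.Lib.Helper28.HeMult.L1.D
set_option autoImplicit false
set_option maxRecDepth 1000000

namespace Cfsg.Agent.Lib.Helper28.HeMult.L1

open Cfsg.Agent.Lib.Helper56.TC Cfsg.Agent.Lib.Helper56.TC.Tabs
open Cfsg.Agent.Lib.Helper28.CovL

theorem cN_96789 : allRange (fun x => forceN T.chkName x) 96789 1122 = true := by decide +kernel
theorem cN_97911 : allRange (fun x => forceN T.chkName x) 97911 1141 = true := by decide +kernel
theorem cN_99052 : allRange (fun x => forceN T.chkName x) 99052 1139 = true := by decide +kernel
theorem cN_100191 : allRange (fun x => forceN T.chkName x) 100191 1176 = true := by decide +kernel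
theorem cN_101367 : allRange (fun x => forceN T.chkName x) 101367 1097 = true := by decide +kernel
theorem cN_102464 : allRange (fun x => forceN T.chkName x) 102464 1175 = true := by decide +kernel
theorem cN_103639 : allRange (fun x => forceN T.chkName x) 103639 1176 = true := by decide +kernel
theorem cN_104815 : allRange (fun x => forceN T.chkName x) 104815 1152 = true := by decide +kernel
theorem cN_105967 : allRange (fun x => forceN T.chkName x) 105967 1168 = true := by decide +kernel
theorem cN_107135 : allRange (fun x => forceN T.chkName x) 107135 1091 = true := by decide +kernel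
theorem cN_108226 : allRange (fun x => forceN T.chkName x) 108226 1058 = true := by decide +kernel
theorem cN_109284 : allRange (fun x => forceN T.chkName x) 109284 1062 = true := by decide +kernel

end Cfsg.Agent.Lib.Helper28.HeMult.L1
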