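import Mathlib
import Cfsg.Agent.Lib.Helper56.TC
import Cfsg.Agent.Lib.Helper28.HeMult.L1.D
set_option autoImplicit false
set_option maxRecDepth 1000000

namespace Cfsg.Agent.Lib.Helper28.HeMult.L1

open Cfsg.Agent.Lib.Helper56.TC Cfsg.Agent.Lib.Helper56.TC.Tabs
open Cfsg.Agent.Lib.Helper28.CovL

theorem cN_110346 : allRange (fun x => forceN T.chkName x) 110346 1170 = true := by decide +kernel
theorem cN_111516 : allRange (fun x => forceN T.chkName x) 111516 1186 = true := by decide +kernel
theorem cN_112702 : allRange (fun x => forceN T.chkName x) 112702 1040 = true := by decide +kernel
theorem cN_113742 : allRange (fun x => forceN T.chkName x) 113742 1109 = true := by decide +kernel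
theorem cN_114851 : allRange (fun x => forceN T.chkName x) 114851 1147 = true := by decide +kernel
theorem cN_115998 : allRange (fun x => forceN T.chkName x) 115998 1052 = true := by decide +kernel
theorem cN_117050 : allRange (fun x => forceN T.chkName x) 117050 1134 = true := by decide +kernel
theorem cN_118184 : allRange (fun x => forceN T.chkName x) 118184 1109 = true := by decide +kernel
theorem cN_119293 : allRange (fun x => forceN T.chkName x) 119293 1188 = true := by decide +kernel
theorem cN_120481 : allRange (fun x => forceN T.chkName x) 120481 1214 = true := by decide +kernel
theorem cN_121695 : allRange (fun x => forceN T.chkName x) 121695 1198 = true := by decide +kernel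
theorem cN_122893 : allRange (fun x => forceN T.chkName x) 122893 1121 = true := by decide +kernel

end Cfsg.Agent.Lib.Helper28.HeMult.L1
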