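import Mathlib
import Cfsg.Agent.Lib.Helper56.TC
import Cfsg.Agent.Lib.Helper28.HeMult.L1.D
set_option autoImplicit false
set_option maxRecDepth 1000000

namespace Cfsg.Agent.Lib.Helper28.HeMult.L1

open Cfsg.Agent.Lib.Helper56.TC Cfsg.Agent.Lib.Helper56.TC.Tabs
open Cfsg.Agent.Lib.Helper28.CovL

theorem cN_124014 : allRange (fun x => forceN T.chkName x) 124014 1147 = true := by decide +kernel
theorem cN_125161 : allRange (fun x => forceN T.chkName x) 125161 1229 = true := by decide +kernel
theorem cN_126390 : allRange (fun x => forceN T.chkName x) 126390 1148 = true := by decide +kernel
theorem cN_127538 : allRange (fun x => forceN T.chkName x) 127538 1065 = true := by decide +kernel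
theorem cN_128603 : allRange (fun x => forceN T.chkName x) 128603 1210 = true := by decide +kernel
theorem cN_129813 : allRange (fun x => forceN T.chkName x) 129813 1227 = true := by decide +kernel
theorem cN_131040 : allRange (fun x => forceN T.chkName x) 131040 1198 = true := by decide +kernel
theorem cN_132238 : allRange (fun x => forceN T.chkName x) 132238 1135 = true := by decide +kernel
theorem cN_133373 : allRange (fun x => forceN T.chkName x) 133373 1140 = true := by decide +kernel
theorem cN_134513 : allRange (fun x => forceN T.chkName x) 134513 1212 = true := by decide +kernel
theorem cN_135725 : allRange (fun x => forceN T.chkName x) 135725 1171 = true := by decide +kernel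
theorem cN_136896 : allRange (fun x => forceN T.chkName x) 136896 1111 = true := by decide +kernel

end Cfsg.Agent.Lib.Helper28.HeMult.L1
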